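import Cfsg.Agent.H234.Eight.OmSmall
import Cfsg.Agent.H925.Eight.Ind
import Cfsg.Agent.H653.Sieve.Col
import Cfsg.Agent.S0297

/-!
# `PΩ⁻_8(2)` has at least eight character degrees (helper234, for S4899)

The degrees `1`, `34`, `84`, `2295`, `4096`, the degrees `1344` and `2835` from the principal block for `17`, and an odd
degree between `2` and `1071` (inducing the sign character of the stabilizer of a totally singular line).
-/

set_option autoImplicit false
set_option linter.unusedSectionVars false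

open Cfsg

namespace Cfsg.Agent.H234.Eight

open Cfsg.Agent.H477.HC Module
open Cfsg.Agent.H53.HC (stabW resHom)
open Cfsg.Agent.H664.Eight (Eight)
open Cfsg.Agent.H175.Eight (Blk exists_blk)
open scoped commutatorElement

universe u v w

/-- the fourth non-exceptional character -/
theorem blk_four {G : Type u} [Group G] [Finite G] {p t D : ℕ} {NE X : Finset (IrrCharacter G)}
    {ε : IrrCharacter G → ℤ} (h : Blk G p 4 t NE X ε D) {x y z : IrrCharacter G} (hx : x ∈ NE) (hy : y ∈ NE)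
    (hz : z ∈ NE) (hxy : x ≠ y) (hxz : x ≠ z) (hyz : y ≠ z) : ∃ χ ∈ NE,
    ∑ χ ∈ NE, ε χ * (charDegree (χ : G → ℂ) : ℤ) = ε x * (charDegree (x : G → ℂ) : ℤ) +
      ε y * (charDegree (y : G → ℂ) : ℤ) + ε z * (charDegree (z : G → ℂ) : ℤ) + ε χ * (charDegree (χ : G → ℂ) : ℤ) := by
  classical
  have h3 : ({x, y, z} : Finset (IrrCharacter G)).card = 3 := by
    rw [Finset.card_insert_of_notMem, Finset.card_insert_of_notMem, Finset.card_singleton]
    · simpa using hyz
    · simp only [Finset.mem_insert, Finset.mem_singleton, not_or]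
      exact ⟨hxy, hxz⟩
  have hsub : ({x, y, z} : Finset (IrrCharacter G)) ⊆ NE := by
    intro w hw
    simp only [Finset.mem_insert, Finset.mem_singleton] at hw
    rcases hw with rfl | rfl | rfl <;> assumption
  have h1 : (NE \ {x, y, z}).card = 1 := by
    rw [Finset.card_sdiff_of_subset hsub, h.card_NE, h3]
  obtain ⟨χ, hχ⟩ := Finset.card_eq_one.1 h1
  have hm : χ ∈ NE \ {x, y, z} := hχ ▸ Finset.mem_singleton_self χ
  refine ⟨χ, (Finset.mem_sdiff.1 hm).1, ?_⟩
  rw [← Finset.sum_sdiff hsub, hχ, Finset.sum_singleton, Finset.sum_insert, Finset.sum_insert, Finset.sum_singleton]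
  · ring
  · simpa using hyz
  · simp only [Finset.mem_insert, Finset.mem_singleton, not_or]
    exact ⟨hxy, hxz⟩

/-- the check for one candidate -/
def chk82 (x : ℕ) : Bool :=
  !(197406720 % x == 0) || ((!(x % 17 == 1) || !(197406720 % ((4179 - x) + (x - 4179)) == 0) || x == 1344) &&
    (!(x % 17 == 16) || !(197406720 % (4179 + x) == 0)))

theorem num82 : ∀ i < 119, ∀ j < 119, chk82 (119 * i + j) = true := by
  decide +kernel

theorem num82' {x D : ℕ} {e : ℤ} (he : e = 1 ∨ e = -1) (hx : x ∣ 197406720) (hx2 : x ^ 2 ≤ 197406720)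
    (hD : D ∣ 197406720) (hc : (17 : ℤ) ∣ x - e) (hs : (1 : ℤ) - 84 - 4096 + e * x = D ∨ (1 : ℤ) - 84 - 4096 + e * x = -D) :
    x = 1344 ∧ D = 2835 := by
  have hlt : x < 119 * 119 := by
    by_contra hlt
    have : 119 * 119 ≤ x := by omega
    have := Nat.pow_le_pow_left this 2
    omega
  have h1 := num82 (x / 119) (by omega) (x % 119) (Nat.mod_lt _ (by norm_num))
  rw [Nat.div_add_mod, chk82, Nat.mod_eq_zero_of_dvd hx] at h1
  simp only [beq_self_eq_true, Bool.not_true, Bool.false_or, Bool.and_eq_true, Bool.or_eq_true, Bool.not_eq_true',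
    beq_eq_false_iff_ne, beq_iff_eq, ne_eq] at h1
  obtain ⟨h2, h2'⟩ := h1
  rcases he with rfl | rfl
  · have h3 : x % 17 = 1 := by omega
    have h4 : D = (4179 - x) + (x - 4179) := by omega
    rcases h2 with (h5 | h5) | h5
    · exact absurd h3 h5
    · exact absurd (by rw [← h4]; exact Nat.mod_eq_zero_of_dvd hD) h5
    · exact ⟨h5, by omega⟩
  · exfalso
    have h3 : x % 17 = 16 := by omega
    have h4 : D = 4179 + x := by omega
    rcases h2' with h5 | h5
    · exact absurd h3 h5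
    · exact absurd (by rw [← h4]; exact Nat.mod_eq_zero_of_dvd hD) h5

theorem exists_irr {G : Type u} [Group G] {d : ℕ} (h : d ∈ charDegrees G) :
    ∃ χ : IrrCharacter G, charDegree (χ : G → ℂ) = d := h

variable (K : Type u) [Field K] [Finite K] (a b : K)
  (hab : ∀ z₁ z₂ : K, z₁ ^ 2 + a * z₁ * z₂ + b * z₂ ^ 2 = 0 → z₁ = 0 ∧ z₂ = 0)

include hab in
/-- two degrees from the principal block, `PΩ⁻_8(2)` -/
theorem exists_exc82 (h : Nat.card K = 2) (h84 : 84 ∈ charDegrees (POmega K (quadFormMinus 3 K a b)))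
    (h4096 : 4096 ∈ charDegrees (POmega K (quadFormMinus 3 K a b))) :
    1344 ∈ charDegrees (POmega K (quadFormMinus 3 K a b)) ∧
      2835 ∈ charDegrees (POmega K (quadFormMinus 3 K a b)) := by
  have : Fact (Nat.Prime 17) := ⟨by norm_num⟩
  have : Finite (POmega K (quadFormMinus 3 K a b)) := Finite.of_surjective _ (QuotientGroup.mk'_surjective _)
  have hN := card_om82 K a b hab h
  obtain ⟨NE, X, ε, D, B⟩ := exists_blk (p := 17) (e := 4) (t := 4) (by norm_num) hN
    (by norm_num) (by norm_num) (order_of_cent (by norm_num) (cent82 K a b hab h)) (by norm_num) (by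
      intro e' h1 h2 h3
      have h4 : e' ≤ 16 := Nat.le_of_dvd (by norm_num) h1
      interval_cases e' <;> revert h1 h2 h3 <;> decide +kernel)
  obtain ⟨χ, hχ⟩ : X.Nonempty := by
    rw [← Finset.card_ne_zero, B.card_X]
    norm_num
  have hDm : D ∈ charDegrees (POmega K (quadFormMinus 3 K a b)) := ⟨χ, B.degX χ hχ⟩
  obtain ⟨x1, e1⟩ := exists_irr (H424.DegTools.one_mem_degrees (G := POmega K (quadFormMinus 3 K a b)))
  obtain ⟨x2, e2⟩ := exists_irr h84
  obtain ⟨x3, e3⟩ := exists_irr h4096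
  have m1 := B.mem_NE e1 (by norm_num) (by norm_num) (by norm_num)
  have m2 := B.mem_NE e2 (by norm_num) (by norm_num) (by norm_num)
  have m3 := B.mem_NE e3 (by norm_num) (by norm_num) (by norm_num)
  have s1 := B.sign_pos (by norm_num) m1 e1 (by norm_num)
  have s2 := B.sign_neg (by norm_num) m2 e2 (by norm_num)
  have s3 := B.sign_neg (by norm_num) m3 e3 (by norm_num)
  have n12 : x1 ≠ x2 := fun h => by
    rw [h, e2] at e1
    omega
  have n13 : x1 ≠ x3 := fun h => by
    rw [h, e3] at e1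
    omega
  have n23 : x2 ≠ x3 := fun h => by
    rw [h, e3] at e2
    omega
  obtain ⟨x4, m4, hsum⟩ := blk_four B m1 m2 m3 n12 n13 n23
  obtain ⟨x, hx⟩ : ∃ x, x = charDegree (x4 : POmega K (quadFormMinus 3 K a b) → ℂ) := ⟨_, rfl⟩
  have hxm : x ∈ charDegrees (POmega K (quadFormMinus 3 K a b)) := ⟨x4, hx.symm⟩
  have hsq := H424.DegTools.sq_le hxm ⊥ bot_le
  rw [Subgroup.index_bot] at hsq
  have hxd := H424.DegTools.dvd_card hxm
  have hDd := H424.DegTools.dvd_card hDm
  rw [hN] at hsq hxd hDd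
  have hB := B.sum
  rw [hsum, s1, s2, s3, e1, e2, e3, ← hx] at hB
  obtain ⟨r1, r2⟩ := num82' (B.sign x4 m4) hxd hsq hDd (by rw [hx]; exact B.congr x4 m4) (by
    rcases hB with hB | hB
    · left
      rw [← hB]
      push_cast
      ring
    · right
      rw [← hB]
      push_cast
      ring)
  rw [r1] at hxm
  rw [r2] at hDm
  exact ⟨hxm, hDm⟩

/-! ### an odd degree -/

/-- the sign of the permutation of the vectors -/
noncomputable def sgn {G : Type*} [Group G] {K : Type u} [Field K] {W : Type v} [AddCommGroup W] [Module K W]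
    [Fintype W] [DecidableEq W] (f : G →* (W ≃ₗ[K] W)) : G →* ℂˣ :=
  (Units.map (Int.castRingHom ℂ).toMonoidHom).comp
    (Equiv.Perm.sign.comp ((MulAction.toPermHom (W ≃ₗ[K] W) W).comp f))

theorem sgn_apply {G : Type*} [Group G] {K : Type u} [Field K] {W : Type v} [AddCommGroup W] [Module K W]
    [Fintype W] [DecidableEq W] (f : G →* (W ≃ₗ[K] W)) (g : G) {x y : W} (hxy : x ≠ y)
    (h : ∀ w, f g w = Equiv.swap x y w) : sgn f g ≠ 1 := by
  have h1 : MulAction.toPermHom (W ≃ₗ[K] W) W (f g) = Equiv.swap x y := Equiv.ext h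
  unfold sgn
  rw [MonoidHom.comp_apply, MonoidHom.comp_apply, MonoidHom.comp_apply, h1, Equiv.Perm.sign_swap hxy]
  intro h2
  have h3 := congrArg Units.val h2
  norm_num at h3

/-- the index of a preimage in a normal subgroup -/
theorem relIndex_dvd {G : Type*} [Group G] [Finite G] (P R : Subgroup G) [R.Normal] : P.relIndex R ∣ P.index := by
  have h1 := Subgroup.relIndex_dvd_index_of_normal R P
  obtain ⟨s, hs⟩ := h1
  have h2 : P.relIndex R * R.index = R.relIndex P * P.index := by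
    rw [← Subgroup.inf_relIndex_right, Subgroup.relIndex_mul_index inf_le_right,
      ← Subgroup.inf_relIndex_right R P, Subgroup.relIndex_mul_index inf_le_right, inf_comm]
  have h3 : R.relIndex P ≠ 0 := Subgroup.index_ne_zero_of_finite (H := R.subgroupOf P)
  refine ⟨s, ?_⟩
  apply mul_left_cancel₀ h3
  rw [← h2, hs]
  ring

variable {K} in
/-- the transvection of a totally singular `2`-space -/
theorem exists_transv {V : Type v} [AddCommGroup V] [Module K V] [FiniteDimensional K V]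
    {F : CForm K V} {X : Type w} [AddCommGroup X] [Module K X] {F' : CForm K X} {e f : Fin 3 → V}
    {j : X →ₗ[K] V} (h : CForm.Frm F F' e f j) : ∃ g ∈ commutator F.iso,
      (g : V ≃ₗ[K] V) (e 0) = e 0 ∧ (g : V ≃ₗ[K] V) (e 1) = e 1 + e 0 := by
  have se : ∀ i, F.Sing (e i) := fun i => ⟨h.hQe i, h.hee i i⟩
  have sf : ∀ i, F.Sing (f i) := fun i => ⟨h.hQf i, h.hff i i⟩
  obtain ⟨r, hr⟩ := F.exists_root (se 0) (sf 2) (by rw [h.hef]; simp)
  obtain ⟨t, ht⟩ := F.exists_root (se 2) (sf 1) (by rw [h.hef]; simp)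
  have r0 : (r : V ≃ₗ[K] V) (e 0) = e 0 := by rw [hr, h.hef, h.hee]; simp
  have r1 : (r : V ≃ₗ[K] V) (e 1) = e 1 := by rw [hr, h.hef, h.hee]; simp
  have r2 : (r : V ≃ₗ[K] V) (e 2) = e 2 + e 0 := by rw [hr, h.hef, h.hee]; simp
  have t0 : (t : V ≃ₗ[K] V) (e 0) = e 0 := by rw [ht, h.hef, h.hee]; simp
  have t1 : (t : V ≃ₗ[K] V) (e 1) = e 1 + e 2 := by rw [ht, h.hef, h.hee]; simp
  have t2 : (t : V ≃ₗ[K] V) (e 2) = e 2 := by rw [ht, h.hef, h.hee]; simp
  have key : ∀ x : V, ((⁅r, t⁆ : F.iso) : V ≃ₗ[K] V) ((t : V ≃ₗ[K] V) ((r : V ≃ₗ[K] V) x)) =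
      (r : V ≃ₗ[K] V) ((t : V ≃ₗ[K] V) x) := by
    intro x
    have h1 : ⁅r, t⁆ * (t * r) = r * t := by rw [commutatorElement_def]; group
    have h2 := congrArg (fun g : F.iso => (g : V ≃ₗ[K] V) x) h1
    exact h2
  refine ⟨⁅r, t⁆, Subgroup.commutator_mem_commutator (Subgroup.mem_top r) (Subgroup.mem_top t), ?_, ?_⟩
  · have h1 := key (e 0)
    rwa [r0, t0, r0] at h1
  · have h1 := key (e 1 - e 2 + e 0)
    have a1 : (r : V ≃ₗ[K] V) (e 1 - e 2 + e 0) = e 1 - e 2 := by
      rw [map_add, map_sub, r0, r1, r2]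
      abel
    have a2 : (t : V ≃ₗ[K] V) (e 1 - e 2) = e 1 := by
      rw [map_sub, t1, t2]
      abel
    have a3 : (t : V ≃ₗ[K] V) (e 1 - e 2 + e 0) = e 1 + e 0 := by rw [map_add, a2, t0]
    have a4 : (r : V ≃ₗ[K] V) (e 1 + e 0) = e 1 + e 0 := by rw [map_add, r1, r0]
    rw [a1, a2, a3, a4] at h1
    exact h1

variable {K} in
/-- the sign character of the stabilizer of a totally singular `2`-space, `q = 2` -/
theorem exists_sgn {V : Type v} [AddCommGroup V] [Module K V] [FiniteDimensional K V]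
    (h : Nat.card K = 2) {F : CForm K V} {X : Type w} [AddCommGroup X] [Module K X] {F' : CForm K X}
    {e f : Fin 3 → V} {j : X →ₗ[K] V} (hfr : CForm.Frm F F' e f j) : ∃ W₀ ∈ F.Om 2,
    ∃ s : stabW F.iso.subtype W₀ →* ℂˣ, ∃ g ∈ commutator F.iso, ∃ hg : g ∈ stabW F.iso.subtype W₀, s ⟨g, hg⟩ ≠ 1 := by
  classical
  obtain ⟨g, hg, g0, g1⟩ := exists_transv hfr
  let e' : Fin 2 → V := ![e 0, e 1]
  let f' : Fin 2 → V := ![f 0, f 1]
  obtain ⟨W₀, hW₀⟩ : ∃ W₀ : Submodule K V, W₀ = Submodule.span K (Set.range e') := ⟨_, rfl⟩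
  have hWm : W₀ ∈ F.Om 2 := by
    rw [hW₀]
    refine F.frame_mem_Om (f := f') ?_ ?_ ?_
    · intro i l
      fin_cases i <;> fin_cases l <;> exact hfr.hee _ _
    · intro i l
      fin_cases i <;> fin_cases l <;> refine (hfr.hef _ _).trans ?_ <;> simp
    · intro i
      fin_cases i <;> exact hfr.hQe _
  have he0 : e 0 ∈ W₀ := hW₀ ▸ Submodule.subset_span ⟨0, rfl⟩
  have he1 : e 1 ∈ W₀ := hW₀ ▸ Submodule.subset_span ⟨1, rfl⟩
  have hWmem : ∀ w ∈ W₀, ∃ x y : K, w = x • e 0 + y • e 1 := by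
    intro w hw
    rw [hW₀] at hw
    obtain ⟨c, hc⟩ := (Submodule.mem_span_range_iff_exists_fun K).1 hw
    rw [Fin.sum_univ_two] at hc
    exact ⟨c 0, c 1, hc.symm⟩
  have hWf : Finite W₀ := Module.finite_of_finite K
  let _ := Fintype.ofFinite W₀
  have hgW : g ∈ stabW F.iso.subtype W₀ := by
    refine Cfsg.Agent.H53.HC.map_eq_of_le F.iso.subtype fun w hw => ?_
    obtain ⟨x, y, rfl⟩ := hWmem w hw
    change (g : V ≃ₗ[K] V) _ ∈ _
    rw [map_add, map_smul, map_smul, g0, g1]
    exact W₀.add_mem (W₀.smul_mem _ he0) (W₀.smul_mem _ (W₀.add_mem he1 he0))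
  have h01 : ∀ x : K, x = 0 ∨ x = 1 := by
    intro x
    obtain ⟨y, -, hy⟩ := (Nat.card_eq_two_iff' (0 : K)).1 h
    by_cases hx : x = 0
    · exact Or.inl hx
    · exact Or.inr ((hy x hx).trans (hy 1 one_ne_zero).symm)
  have hli : ∀ x y : K, x • e 0 + y • e 1 = 0 → x = 0 ∧ y = 0 := by
    intro x y hxy
    have h1 : F.B (x • e 0 + y • e 1) (f 0) = x := by
      rw [F.B_add_left, F.B_smul_left, F.B_smul_left, hfr.hef, hfr.hef]
      simp
    have h2 : F.B (x • e 0 + y • e 1) (f 1) = y := by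
      rw [F.B_add_left, F.B_smul_left, F.B_smul_left, hfr.hef, hfr.hef]
      simp
    rw [hxy, CForm.B_zero_left] at h1 h2
    exact ⟨h1.symm, h2.symm⟩
  refine ⟨W₀, hWm, sgn (resHom F.iso.subtype W₀), g, hg, hgW, ?_⟩
  have h2 : (1 : K) + 1 = 0 := by
    rcases h01 (1 + 1) with h1 | h1
    · exact h1
    · exact absurd (left_eq_add.1 h1.symm) one_ne_zero
  refine sgn_apply _ _ (x := ⟨e 1, he1⟩) (y := ⟨e 1 + e 0, W₀.add_mem he1 he0⟩) ?_ ?_
  · intro h1
    have h3 := congrArg Subtype.val h1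
    have h4 := hli 1 0 (by
      rw [one_smul, zero_smul, add_zero]
      exact (left_eq_add.1 h3))
    exact one_ne_zero h4.1
  · rintro ⟨w, hw⟩
    obtain ⟨x, y, rfl⟩ := hWmem w hw
    apply Subtype.ext
    rw [Cfsg.Agent.H53.HC.coe_resHom]
    change (g : V ≃ₗ[K] V) _ = _
    rw [map_add, map_smul, map_smul, g0, g1]
    have n0 : e 0 ≠ 0 := fun h0 => one_ne_zero (hli 1 0 (by rw [h0]; simp)).1
    have n1 : e 1 ≠ 0 := fun h0 => one_ne_zero (hli 0 1 (by rw [h0]; simp)).2
    have n01 : e 0 ≠ e 1 := fun h0 => one_ne_zero (hli 1 1 (by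
      rw [h0, ← add_smul, h2, zero_smul])).1
    have n2 : (0 : V) ≠ e 1 + e 0 := fun h0 => one_ne_zero (hli 1 1 (by
      rw [one_smul, one_smul, add_comm, ← h0])).1
    have hd : e 0 + e 0 = 0 := by
      have : ((1 : K) + 1) • e 0 = 0 := by rw [h2, zero_smul]
      rwa [add_smul, one_smul] at this
    rw [Equiv.swap_apply_def, apply_ite Subtype.val, apply_ite Subtype.val]
    simp only [Subtype.mk.injEq]
    rcases h01 x with rfl | rfl <;> rcases h01 y with rfl | rfl
    · rw [if_neg (by simpa using n1.symm), if_neg (by simpa using n2)]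
      simp
    · rw [if_pos (by simp)]
      simp
    · rw [if_neg (by simpa using n01), if_neg (by simpa using n1)]
      simp
    · rw [if_neg (by simpa using n0), if_pos (by rw [one_smul, one_smul, add_comm])]
      rw [one_smul, one_smul, add_comm, add_assoc, hd, add_zero]

/-- **an odd degree, `q = 2`** -/
theorem exists_odd {ι : Type} [Fintype ι] [DecidableEq ι] (h : Nat.card K = 2) (F : CForm K (ι → K))
    (hB : ∀ u v, F.B u v = F.Q (u + v) - F.Q u - F.Q v) {X : Type w} [AddCommGroup X] [Module K X] {F' : CForm K X}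
    {e f : Fin 3 → ι → K} {j : X →ₗ[K] ι → K} (hfr : CForm.Frm F F' e f j) {M : ℕ} (hM : Nat.card (F.Om 2) = M)
    (hM2 : ¬ 2 ∣ M) (hcen : ∀ z : Omega K F.Q, z ∈ Subgroup.center (Omega K F.Q) → z = 1)
    (hs : IsSimpleGroup (POmega K F.Q)) (hp : ¬ (Nat.card (POmega K F.Q)).Prime) :
    ∃ e, Ch (POmega K F.Q) e ∧ 1 < e ∧ ¬ 2 ∣ e ∧ e ≤ M := by
  classical
  have : Finite (POmega K F.Q) := Finite.of_surjective _ (QuotientGroup.mk'_surjective _)
  have hfin := finite_iso F
  obtain ⟨W₀, hWm, s, g, hg, hgW, hs1⟩ := exists_sgn h hfr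
  let iq := isoQuad F hB
  let φ : Omega K F.Q →* F.iso := iq.toMonoidHom.comp (Omega K F.Q).subtype
  let P := stabW F.iso.subtype W₀
  have hPidx : P.index = M := by
    have h1 : Nat.card F.iso = Nat.card (F.Om 2) * Nat.card P := F.card_iso_eq hWm
    have h2 : Nat.card P * P.index = Nat.card F.iso := P.card_mul_index
    rw [h1, mul_comm (Nat.card (F.Om 2)), hM] at h2
    exact Nat.eq_of_mul_eq_mul_left Nat.card_pos h2
  have hR : φ.range = commutator F.iso := by
    have h1 : (Omega K F.Q).map iq.toMonoidHom = commutator F.iso := by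
      change (commutator (isometryGroup K F.Q)).map iq.toMonoidHom = commutator F.iso
      rw [commutator_def, commutator_def, Subgroup.map_commutator, ← MonoidHom.range_eq_map]
      have : iq.toMonoidHom.range = ⊤ := MonoidHom.range_eq_top.2 iq.surjective
      rw [this]
    rw [← h1]
    change (iq.toMonoidHom.comp (Omega K F.Q).subtype).range = _
    rw [MonoidHom.range_comp, Subgroup.range_subtype]
  have hRn : (φ.range).Normal := by
    rw [hR]
    infer_instance
  have hHidx : (P.comap φ).index ∣ M := by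
    rw [Subgroup.index_comap, ← hPidx]
    exact relIndex_dvd _ _
  have hM0 : 0 < M := Nat.pos_of_ne_zero fun h0 => hM2 (h0 ▸ dvd_zero 2)
  obtain ⟨z, hz⟩ : g ∈ φ.range := hR ▸ hg
  have hzP : z ∈ P.comap φ := by
    rw [Subgroup.mem_comap, hz]
    exact hgW
  let f₀ : (P.comap φ) →* ℂˣ := s.comp (φ.subgroupComap P)
  have hf₀ : f₀ ≠ 1 := by
    intro h1
    apply hs1
    have h2 := DFunLike.congr_fun h1 ⟨z, hzP⟩
    have h3 : φ.subgroupComap P ⟨z, hzP⟩ = ⟨g, hgW⟩ := Subtype.ext hz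
    have h4 : f₀ ⟨z, hzP⟩ = s (φ.subgroupComap P ⟨z, hzP⟩) := rfl
    rw [h4, h3] at h2
    exact h2
  obtain ⟨d, hd, hd1, hd2, hd3⟩ := H925.Eight.exists_pprime f₀ hf₀ (p := 2) (fun h2 => hM2 (h2.trans hHidx))
    (fun z hz => by
      have h1 := hcen z hz
      subst h1
      exact ⟨one_mem _, map_one f₀⟩) (fun η hη hη1 => SmallSimple.SelfCentSum.eq_one_of_apply_one hp hη hη1)
  exact ⟨d, hd, hd1, hd2, hd3.trans (Nat.le_of_dvd hM0 hHidx)⟩

include hab in
/-- **`PΩ⁻_8(2)`** -/
theorem eight_om82 (h : Nat.card K = 2) : Eight (POmega K (quadFormMinus 3 K a b)) := by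
  have : Fact (Nat.Prime 2) := ⟨by norm_num⟩
  have : CharP K 2 := charP_of_card K (by norm_num) h
  have : Finite (POmega K (quadFormMinus 3 K a b)) := Finite.of_surjective _ (QuotientGroup.mk'_surjective _)
  have hN := card_om82 K a b hab h
  have F := facts K (p := 2) a b hab (l := 3) le_rfl
  rw [h] at F
  obtain ⟨D, hD⟩ : ∃ D, D = dg (CForm.minusF K 3 a b hab) := ⟨_, rfl⟩
  rw [← hD] at F
  obtain ⟨f, g, hf, hg, ef, eg⟩ := F.rk
  norm_num at ef eg
  have hf84 : f = 84 := by omega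
  have hg34 : g = 34 := by omega
  subst hf84 hg34
  obtain ⟨z, hz⟩ := F.dg 3 le_rfl (by left; exact le_rfl)
  have hex3 := F.ex 3 (by omega) (by omega)
  norm_num [Finset.prod_range_succ] at hex3
  have hD3 : D 3 = 2295 := by omega
  obtain ⟨cz, -, t, ht, hzt⟩ := hz
  rw [cq_even (by decide)] at ht
  rw [hD3] at hzt
  have hz2 : z = 2295 := by
    have t2 := Nat.le_of_dvd (by norm_num) ht
    interval_cases t <;> omega
  subst hz2
  have h4096 := mem_of_ch F.st
  norm_num at h4096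
  obtain ⟨m1, m2⟩ := exists_exc82 K a b hab h (mem_of_ch hf) h4096
  obtain ⟨d, hd, hd1, hd2, hd3⟩ : ∃ d, Ch (POmega K (quadFormMinus 3 K a b)) d ∧ 1 < d ∧ ¬ 2 ∣ d ∧ d ≤ 1071 := by
    obtain ⟨e, f, j, hfr⟩ := CForm.frm_minus (K := K) hab (show 3 + 0 = 3 by norm_num)
    refine exists_odd K h (CForm.minusF K 3 a b hab) (minus_hB K 3 a b hab) hfr ?_ (by norm_num) ?_ ?_ ?_
    · have h1 := card_Om_minus K a b hab (k := 2) (l := 3) (by norm_num)
      rw [h] at h1
      simp only [Finset.prod_range_succ, Finset.prod_range_zero, Nat.reduceAdd, Nat.reducePow, Nat.reduceSub,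
        Nat.reduceMul, one_mul] at h1
      omega
    · intro z hz
      have h1 := cen_minus K (by norm_num) a b hab z hz
      have h3 : omMat z = 1 := by
        rcases h1 with h1 | h1
        · exact h1
        · refine h1.trans ?_
          ext i j
          rw [Matrix.neg_apply]
          exact CharTwo.neg_eq _
      apply Subtype.ext
      apply Subtype.ext
      exact Units.ext h3
    · let _ := Fintype.ofFinite K
      exact Cfsg.Agent.S0297.result (F := K) 4 le_rfl a b hab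
    · change ¬ (Nat.card (POmega K (quadFormMinus 3 K a b))).Prime
      rw [hN]
      norm_num
  refine Cfsg.Agent.H664.Eight.eight_of_list [d, 1, 34, 84, 1344, 2295, 2835, 4096] ?_ (by simp) ?_
  · rw [List.nodup_cons]
    refine ⟨?_, by decide⟩
    simp only [List.mem_cons, List.not_mem_nil, or_false, not_or]
    omega
  · intro x hx
    simp only [List.mem_cons, List.not_mem_nil, or_false] at hx
    rcases hx with rfl | rfl | rfl | rfl | rfl | rfl | rfl | rfl
    · exact mem_of_ch hd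
    · exact Cfsg.Agent.H664.Eight.one_mem
    · exact mem_of_ch hg
    · exact mem_of_ch hf
    · exact m1
    · exact mem_of_ch cz
    · exact m2
    · exact h4096

include hab in
/-- **`PΩ⁻_{2l+2}(q)`, `l ≥ 3`, has at least eight character degrees** -/
theorem eight_om {l : ℕ} (hl : 3 ≤ l) : Eight (POmega K (quadFormMinus l K a b)) := by
  by_cases h : 4 ≤ l ∨ 4 ≤ Nat.card K
  · exact eight_ne K a b hab hl h
  obtain rfl : l = 3 := by omega
  have h2 : 2 ≤ Nat.card K := Finite.one_lt_card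
  rcases (by omega : Nat.card K = 2 ∨ Nat.card K = 3) with h3 | h3
  · exact eight_om82 K a b hab h3
  · exact eight_om83 K a b hab h3

end Cfsg.Agent.H234.Eight
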